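import Cfsg.Agent.H17.Planes
import Cfsg.Agent.H17.Basic

/-! The involutions `t(x)` of a Fischer space. -/

set_option autoImplicit false

namespace Cfsg.Agent.H17.Planes

open Cfsg.LineSystem in
/-- Isomorphisms commute with the maps `t(x)`. -/
theorem iso_lineMap {X Y : Type*} {L : Set (Set X)} {M : Set (Set Y)}
    (hpL : IsPartialLinear L) (h3 : ∀ l ∈ L, l.ncard = 3) (hpM : IsPartialLinear M)
    {e : X ≃ Y} (he : IsIso L M e) (x y : X) : e (lineMap L x y) = lineMap M (e x) (e y) := by
  by_cases hc : Collinear L x y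
  · obtain ⟨hxy, l, hl, hx, hy⟩ := hc
    obtain ⟨z, hzx, hzy, rfl⟩ := exists_third (h3 l hl) hxy hx hy
    rw [lineMap_eq hpL hxy hzx hzy hl]
    refine (lineMap_eq hpM (e.injective.ne hxy) (e.injective.ne hzx) (e.injective.ne hzy) ?_).symm
    have := (he _).mp hl
    simpa [Set.image_insert_eq] using this
  · by_cases hxy : x = y
    · subst hxy; rw [lineMap_self, lineMap_self]
    rw [lineMap_fix hc, lineMap_fix]
    rintro ⟨-, m, hm, hx, hy⟩
    refine hc ⟨hxy, e.symm '' m, ?_, ⟨e x, hx, by simp⟩, ⟨e y, hy, by simp⟩⟩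
    rw [he, Equiv.image_symm_image]; exact hm

open Cfsg.LineSystem in
/-- In the affine plane `t(x)` preserves lines. -/
theorem affine_lineMap (u v : Fin 2 → ZMod 3) :
    lineMap Cfsg.affinePlaneThree u v = -u - v := by
  by_cases h : u = v
  · subst h; rw [lineMap_self, affine_self]
  · exact lineMap_eq affine_isPartialLinear h (affine_third_ne u v h).1 (affine_third_ne u v h).2
      (affine_mem_iff.mpr ⟨u, v, h, rfl⟩)

open Cfsg.LineSystem in
/-- In the dual plane `t(p)` is induced by a transposition. -/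
theorem dual_lineMap (p q : Cfsg.DualAffinePoint) :
    lineMap Cfsg.dualAffinePlaneTwo p q = dualPerm (dualSwap p) q := by
  rw [dual_swap_op]
  by_cases h : Adj p q
  · rw [if_pos h]
    obtain ⟨h1, h2, h3⟩ := dual_op_ne p q h
    exact lineMap_eq dual_isPartialLinear h1 h2 h3 (dual_mem_iff.mpr ⟨p, q, h, rfl⟩)
  · rw [if_neg h]
    refine lineMap_fix ?_
    rintro ⟨hne, _, ⟨i, rfl⟩, hp, hq⟩
    exact dual_not_adj p q hne h i ⟨hp, hq⟩

open Cfsg.LineSystem

variable {X : Type*} {L : Set (Set X)}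

/-- A point of `span` of a set containing it. -/
theorem subset_span (L : Set (Set X)) (S : Set X) : S ⊆ span L S :=
  fun _ hx => Set.mem_sInter.mpr fun _ hT => hT.1 hx

/-- A span is a subspace. -/
theorem span_isSubspace (L : Set (Set X)) (S : Set X) : IsSubspace L (span L S) :=
  fun l hl x hx y hy hne hxl hyl w hw => Set.mem_sInter.mpr fun T hT =>
    hT.2 l hl x (Set.mem_sInter.mp hx T hT) y (Set.mem_sInter.mp hy T hT) hne hxl hyl hw

/-- Lines of a restriction have three points. -/
theorem restrict_ncard (h3 : ∀ l ∈ L, l.ncard = 3) (S : Set X) :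
    ∀ l ∈ restrict L S, l.ncard = 3 := by
  rintro _ ⟨l, hl, hsub, rfl⟩
  rw [← h3 l hl, ← Set.ncard_image_of_injective _ Subtype.val_injective]
  congr 1
  ext w
  exact ⟨by rintro ⟨a, ha, rfl⟩; exact ha, fun hw => ⟨⟨w, hsub hw⟩, hw, rfl⟩⟩

/-- A restriction is a partial linear space. -/
theorem restrict_partial (hp : IsPartialLinear L) (S : Set X) :
    IsPartialLinear (restrict L S) := by
  rintro _ ⟨l, hl, -, rfl⟩ _ ⟨m, hm, -, rfl⟩ x y hxy h1 h2 h3 h4
  rw [hp l hl m hm x y (fun e => hxy (Subtype.ext e)) h1 h2 h3 h4]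

section fischer

variable (hL : Cfsg.IsFischerSpace L)
include hL

/-- `t(x)` is an involution as a map. -/
theorem lineMap_invol (x y : X) : lineMap L x (lineMap L x y) = y := by
  by_cases hc : Collinear L x y
  · obtain ⟨hxy, l, hl, hx, hy⟩ := hc
    obtain ⟨z, hzx, hzy, rfl⟩ := exists_third (hL.2.1 l hl) hxy hx hy
    rw [lineMap_eq hL.1 hxy hzx hzy hl]
    exact lineMap_eq hL.1 hzx.symm hxy.symm hzy.symm (by rwa [Set.pair_comm z y])
  · rw [lineMap_fix hc, lineMap_fix hc]

/-- `t(x)` maps lines to lines. -/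
theorem lineMap_line (x : X) {m : Set X} (hm : m ∈ L) : lineMap L x '' m ∈ L := by
  by_cases hx : x ∈ m
  · have hmem : ∀ y ∈ m, lineMap L x y ∈ m := by
      intro y hy
      by_cases hxy : x = y
      · subst hxy; rw [lineMap_self]; exact hx
      obtain ⟨z, hzx, hzy, rfl⟩ := exists_third (hL.2.1 m hm) hxy hx hy
      rw [lineMap_eq hL.1 hxy hzx hzy hm]; simp
    have : lineMap L x '' m = m := Set.Subset.antisymm (Set.image_subset_iff.mpr hmem)
      fun y hy => ⟨lineMap L x y, hmem y hy, lineMap_invol hL x y⟩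
    rwa [this]
  by_cases hcol : ∃ p ∈ m, Collinear L x p
  · obtain ⟨p, hpm, hxp, l, hl, hxl, hpl⟩ := hcol
    have hlm : l ≠ m := fun h => hx (h ▸ hxl)
    have hS := hL.2.2 l hl m hm hlm ⟨p, hpl, hpm⟩
    obtain ⟨S, hSdef⟩ : ∃ S, S = span L (l ∪ m) := ⟨_, rfl⟩
    have hsub : IsSubspace L S := hSdef ▸ span_isSubspace L _
    have hlS : l ⊆ S := hSdef ▸ Set.subset_union_left.trans (subset_span L _)
    have hmS : m ⊆ S := hSdef ▸ Set.subset_union_right.trans (subset_span L _)
    rw [← hSdef] at hS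
    have hxS : x ∈ S := hlS hxl
    have hp3 := restrict_ncard hL.2.1 S
    have hpl' := restrict_partial hL.1 S
    -- the restricted map agrees
    have hres : ∀ w : S, ((lineMap (restrict L S) ⟨x, hxS⟩ w : S) : X) = lineMap L x w := by
      intro w
      by_cases hc : Collinear L x w
      · obtain ⟨hxw, k, hk, hxk, hwk⟩ := hc
        have hks : k ⊆ S := hsub k hk x hxS w w.2 hxw hxk hwk
        obtain ⟨z, hzx, hzw, rfl⟩ := exists_third (hL.2.1 k hk) hxw hxk hwk
        rw [lineMap_eq hL.1 hxw hzx hzw hk,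
          lineMap_eq hpl' (x := ⟨x, hxS⟩) (y := w) (z := ⟨z, hks (by simp)⟩) (fun e => hxw (congrArg Subtype.val e))
            (fun e => hzx (congrArg Subtype.val e)) (fun e => hzw (congrArg Subtype.val e)) ?_]
        exact ⟨_, hk, hks, by ext u; simp [Subtype.ext_iff]⟩
      · rw [lineMap_fix hc]
        rw [lineMap_fix]
        rintro ⟨hne, _, ⟨k, hk, -, rfl⟩, h1, h2⟩
        exact hc ⟨fun e => hne (Subtype.ext e), k, hk, h1, h2⟩
    have hgoal : lineMap (restrict L S) ⟨x, hxS⟩ '' {w : S | (w : X) ∈ m} ∈ restrict L S := by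
      have hmr : {w : S | (w : X) ∈ m} ∈ restrict L S := ⟨m, hm, hmS, rfl⟩
      rcases hS with ⟨e, he⟩ | ⟨e, he⟩
      · rw [he]
        have := dual_perm_line (dualSwap (e ⟨x, hxS⟩)) ((he _).mp hmr)
        rw [Set.image_image] at this ⊢
        simpa only [iso_lineMap hpl' hp3 dual_isPartialLinear he, dual_lineMap] using this
      · rw [he]
        have := affine_map_line (e ⟨x, hxS⟩) ((he _).mp hmr)
        rw [Set.image_image] at this ⊢
        simpa only [iso_lineMap hpl' hp3 affine_isPartialLinear he, affine_lineMap] using this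
    obtain ⟨k, hk, hks, hkeq⟩ := hgoal
    suffices lineMap L x '' m = k by rwa [this]
    ext u
    constructor
    · rintro ⟨w, hw, rfl⟩
      have hmem : lineMap (restrict L S) ⟨x, hxS⟩ ⟨w, hmS hw⟩ ∈ {v : S | (v : X) ∈ k} :=
        hkeq ▸ ⟨⟨w, hmS hw⟩, hw, rfl⟩
      simp only [Set.mem_setOf_eq, hres] at hmem
      exact hmem
    · intro hu
      have hmem : (⟨u, hks hu⟩ : S) ∈ lineMap (restrict L S) ⟨x, hxS⟩ '' {w : S | (w : X) ∈ m} :=
        hkeq.symm ▸ hu
      obtain ⟨w, hw, he⟩ := hmem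
      exact ⟨w, hw, by rw [← hres, he]⟩
  · have : lineMap L x '' m = m := by
      refine Set.EqOn.image_eq_self fun y hy => lineMap_fix fun h => hcol ⟨y, hy, h⟩
    rwa [this]

/-- `t(x)` as a permutation. -/
noncomputable def tPerm (x : X) : Equiv.Perm X :=
  ⟨lineMap L x, lineMap L x, lineMap_invol hL x, lineMap_invol hL x⟩

theorem tPerm_iso (x : X) : IsIso L L (tPerm hL x) := by
  intro l
  refine ⟨fun h => lineMap_line hL x h, fun h => ?_⟩
  have := lineMap_line hL x (show lineMap L x '' l ∈ L from h)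
  rwa [Set.image_image, Set.EqOn.image_eq_self fun y _ => lineMap_invol hL x y] at this

theorem tPerm_sq (x : X) : tPerm hL x * tPerm hL x = 1 :=
  Equiv.ext fun y => lineMap_invol hL x y

theorem tPerm_conj (x y : X) :
    tPerm hL x * tPerm hL y * tPerm hL x = tPerm hL (lineMap L x y) := by
  refine Equiv.ext fun w => ?_
  show lineMap L x (lineMap L y (lineMap L x w)) = lineMap L (lineMap L x y) w
  have := iso_lineMap hL.1 hL.2.1 hL.1 (tPerm_iso hL x) y (lineMap L x w)
  change lineMap L x (lineMap L y (lineMap L x w)) =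
    lineMap L (lineMap L x y) (lineMap L x (lineMap L x w)) at this
  rwa [lineMap_invol hL] at this

theorem lineMap_facts (hnd : IsNondegenerate L) :
    (∀ x : X, ∃ σ : Equiv.Perm X, ⇑σ = lineMap L x ∧ orderOf σ = 2 ∧ IsIso L L σ) ∧
      Cfsg.IsThreeTranspositionSet {σ : Equiv.Perm X | ∃ x : X, ⇑σ = lineMap L x} := by
  have hord : ∀ x, orderOf (tPerm hL x) = 2 := by
    intro x
    refine orderOf_eq_prime (by rw [pow_two]; exact tPerm_sq hL x) fun h => ?_
    obtain ⟨l, hl, hxl⟩ := hnd x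
    obtain ⟨y, hyl, hyx⟩ := Set.exists_ne_of_one_lt_ncard
      (by rw [hL.2.1 l hl]; norm_num : 1 < l.ncard) x
    obtain ⟨z, hzx, hzy, rfl⟩ := exists_third (hL.2.1 l hl) hyx.symm hxl hyl
    have h' : lineMap L x y = y := congrArg (fun σ : Equiv.Perm X => σ y) h
    exact hzy ((lineMap_eq hL.1 hyx.symm hzx hzy hl).symm.trans h')
  refine ⟨fun x => ⟨tPerm hL x, rfl, hord x, tPerm_iso hL x⟩, ?_, ?_⟩
  · rintro σ ⟨x, hx⟩
    rw [show σ = tPerm hL x from Equiv.ext fun y => congrFun hx y]; exact hord x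
  · rintro σ ⟨x, hx⟩ τ ⟨y, hy⟩
    rw [show σ = tPerm hL x from Equiv.ext fun w => congrFun hx w,
      show τ = tPerm hL y from Equiv.ext fun w => congrFun hy w]
    have sx := tPerm_sq hL x
    have sy := tPerm_sq hL y
    by_cases hc : Collinear L x y
    · right
      obtain ⟨hxy, l, hl, hxl, hyl⟩ := hc
      obtain ⟨z, hzx, hzy, rfl⟩ := exists_third (hL.2.1 l hl) hxy hxl hyl
      have h1 : lineMap L x y = z := lineMap_eq hL.1 hxy hzx hzy hl
      have h2 : lineMap L y x = z :=
        lineMap_eq hL.1 hxy.symm hzy hzx (by rwa [Set.insert_comm])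
      have e : tPerm hL x * tPerm hL y * tPerm hL x = tPerm hL y * tPerm hL x * tPerm hL y := by
        rw [tPerm_conj, tPerm_conj, h1, h2]
      calc (tPerm hL x * tPerm hL y) ^ 3
          = (tPerm hL x * tPerm hL y * tPerm hL x) * (tPerm hL y * tPerm hL x * tPerm hL y) := by
            simp only [pow_succ, pow_zero, one_mul, mul_assoc]
        _ = 1 := by
            rw [← e]
            calc tPerm hL x * tPerm hL y * tPerm hL x * (tPerm hL x * tPerm hL y * tPerm hL x)
                = tPerm hL x * (tPerm hL y * (tPerm hL x * tPerm hL x) * tPerm hL y) * tPerm hL x := by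
                  simp only [mul_assoc]
              _ = 1 := by rw [sx, mul_one, sy, mul_one, sx]
    · left
      rw [pow_two, show tPerm hL x * tPerm hL y * (tPerm hL x * tPerm hL y) =
        tPerm hL x * tPerm hL y * tPerm hL x * tPerm hL y by simp only [mul_assoc], tPerm_conj,
        lineMap_fix hc, sy]

end fischer

end Cfsg.Agent.H17.Planes
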