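import Cfsg.Agent.H17.PlaneGen

/-! The line system of a 3-transposition group is a Fischer space. -/

set_option autoImplicit false

namespace Cfsg.Agent.H17.Planes

variable {G : Type*} [Group G] {D : Set G} (hD : Cfsg.IsThreeTranspositionSet D)
  (hconj : ∀ g : G, ∀ d ∈ D, g * d * g⁻¹ ∈ D)

include hD in
/-- The third point through two non-commuting members, symmetric forms. -/
theorem line_eq {x y : D} (h : ¬ Commute (x : G) y) :
    ∀ z : D, (z : G) = (y : G) * x * (y : G)⁻¹ ↔ (z : G) = (y : G) * x * y := by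
  intro z; rw [inv_self hD y.2]

include hD in
/-- Any two distinct points of a line determine it. -/
theorem line_determined {l : Set D} (hl : l ∈ Cfsg.threeTranspositionLines D) {a b : D}
    (hab : a ≠ b) (ha : a ∈ l) (hb : b ∈ l) :
    ¬ Commute (a : G) b ∧
      l = {z : D | (z : G) = a ∨ (z : G) = b ∨ (z : G) = (b : G) * a * b} := by
  obtain ⟨x, y, hxy, rfl⟩ := hl
  have hx2 := sq_one hD x.2
  have hy2 := sq_one hD y.2
  have hbr : (x : G) * y * x = (y : G) * x * y := braid hD x.2 y.2 hxy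
  obtain ⟨t, ht⟩ : ∃ t, t = (y : G) * x * y := ⟨_, rfl⟩
  have sand : ∀ {u v w : G}, u * u = 1 → u * v * u = w → u * w * u = v := fun {u v w} hu h => by
    rw [← h, show u * (u * v * u) * u = (u * u) * v * (u * u) by simp only [mul_assoc], hu, one_mul,
      mul_one]
  have hyty : (y : G) * t * y = x := sand hy2 ht.symm
  have hxtx : (x : G) * t * x = y := sand hx2 (hbr.trans ht.symm)
  have hty' : ¬ Commute t (y : G) := fun h => hxy (by
    have : (y : G) * t * y = t := by rw [mul_assoc, h.eq, ← mul_assoc, hy2, one_mul]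
    rw [← hyty, this]; exact h)
  have hxt' : ¬ Commute (x : G) t := fun h => hxy (by
    have : (x : G) * t * x = t := by rw [h.eq, mul_assoc, hx2, mul_one]
    rw [← hxtx, this]; exact h)
  have htt : t * x * t = y ∧ t * y * t = x := by
    have t2 : t * t = 1 := by
      rw [ht, show (y : G) * x * y * ((y : G) * x * y) = (y : G) * (x * ((y : G) * y) * x) * y by
        simp only [mul_assoc], hy2, mul_one, hx2, mul_one, hy2]
    have hx' : ∀ u, (x : G) * (x * u) = u := fun u => by rw [← mul_assoc, hx2, one_mul]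
    have hy' : ∀ u, (y : G) * (y * u) = u := fun u => by rw [← mul_assoc, hy2, one_mul]
    constructor
    · calc t * x * t = ((x : G) * y * x) * x * ((x : G) * y * x) := by rw [hbr, ← ht]
        _ = (x : G) * ((y : G) * x * y) * x := by simp only [mul_assoc, hx']
        _ = y := by rw [← hbr]; simp only [mul_assoc, hx', hx2, mul_one]
    · calc t * y * t = ((y : G) * x * y) * y * ((y : G) * x * y) := by rw [← ht]
        _ = (y : G) * ((x : G) * y * x) * y := by simp only [mul_assoc, hy']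
        _ = x := by rw [hbr]; simp only [mul_assoc, hy', hy2, mul_one]
  simp only [Set.mem_setOf_eq, inv_self hD y.2, ← ht] at ha hb
  have hne : (a : G) ≠ b := fun h => hab (Subtype.ext h)
  rcases ha with ha | ha | ha <;> rcases hb with hb | hb | hb <;> rw [ha, hb] at hne ⊢
  all_goals first | exact absurd rfl hne | skip
  · refine ⟨hxy, ?_⟩
    ext z; simp only [Set.mem_setOf_eq, inv_self hD y.2]
  · refine ⟨hxt', ?_⟩
    ext z; simp only [Set.mem_setOf_eq, inv_self hD y.2, ← ht, htt.1]; tauto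
  · refine ⟨fun h => hxy h.symm, ?_⟩
    ext z; simp only [Set.mem_setOf_eq, inv_self hD y.2, hbr, ← ht]; tauto
  · refine ⟨fun h => hty' h.symm, ?_⟩
    ext z; simp only [Set.mem_setOf_eq, inv_self hD y.2, ← ht, htt.2]; tauto
  · refine ⟨fun h => hxt' h.symm, ?_⟩
    ext z; simp only [Set.mem_setOf_eq, inv_self hD y.2, ← ht, hxtx]; tauto
  · refine ⟨hty', ?_⟩
    ext z; simp only [Set.mem_setOf_eq, inv_self hD y.2, ← ht, hyty]; tauto

include hD in
/-- Two lines with two common points are equal. -/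
theorem lines_isPartialLinear : Cfsg.LineSystem.IsPartialLinear (Cfsg.threeTranspositionLines D) := by
  intro l hl m hm a b hab h1 h2 h3 h4
  rw [(line_determined hD hl hab h1 h2).2, (line_determined hD hm hab h3 h4).2]

include hD in
/-- Lines have three points. -/
theorem lines_ncard (hconj : ∀ g : G, ∀ d ∈ D, g * d * g⁻¹ ∈ D) :
    ∀ l ∈ Cfsg.threeTranspositionLines D, l.ncard = 3 := by
  rintro _ ⟨x, y, hxy, rfl⟩
  obtain ⟨z, hz⟩ : ∃ z : D, (z : G) = (y : G) * x * (y : G)⁻¹ := ⟨⟨_, hconj _ _ x.2⟩, rfl⟩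
  refine Set.ncard_eq_three.mpr ⟨x, y, z, ?_, ?_, ?_, ?_⟩
  · intro h; exact hxy (h ▸ Commute.refl _)
  · intro h
    apply hxy
    have : (y : G) * x * (y : G)⁻¹ = x := by rw [← hz, ← h]
    exact (mul_inv_eq_iff_eq_mul.mp this).symm
  · intro h
    apply hxy
    have h' : (y : G) * x * (y : G)⁻¹ = y := by rw [← hz, ← h]
    rw [mul_inv_eq_iff_eq_mul, mul_left_cancel_iff] at h'
    rw [h']
  · ext w; simp only [Set.mem_setOf_eq, Set.mem_insert_iff, Set.mem_singleton_iff, Subtype.ext_iff, hz]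

include hD hconj in
/-- A parametrised configuration gives the span and the isomorphism type. -/
theorem span_iso {P : Type*} (M : Set (Set P)) (f : P → G) (adj : P → P → Prop) (op : P → P → P)
    (hfD : ∀ p, f p ∈ D) (hinj : Function.Injective f)
    (hM : ∀ l, l ∈ M ↔ ∃ p q, adj p q ∧ l = {p, q, op p q})
    (hadj : ∀ p q, adj p q → ¬ Commute (f p) (f q) ∧ f q * f p * f q = f (op p q))
    (hnadj : ∀ p q, p ≠ q → ¬ adj p q → Commute (f p) (f q))
    (p0 p1 p2 : P)
    (hind : ∀ Q : P → Prop, Q p0 → Q p1 → Q p2 → (∀ p q, adj p q → Q p → Q q → Q (op p q)) →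
      ∀ p, Q p)
    {x y z : D} (hx : (x : G) = f p0) (hy : (y : G) = f p1) (hz : (z : G) = f p2)
    {l m : Set D} (hl : l ∈ Cfsg.threeTranspositionLines D) (hm : m ∈ Cfsg.threeTranspositionLines D)
    (hxy : x ≠ y) (hxl : x ∈ l) (hyl : y ∈ l) (hxz : x ≠ z) (hxm : x ∈ m) (hzm : z ∈ m) :
    Cfsg.LineSystem.Isomorphic (Cfsg.LineSystem.restrict (Cfsg.threeTranspositionLines D)
      (Cfsg.LineSystem.span (Cfsg.threeTranspositionLines D) (l ∪ m))) M := by
  obtain ⟨π, hπ⟩ : ∃ π : P → D, ∀ p, (π p : G) = f p := ⟨fun p => ⟨f p, hfD p⟩, fun _ => rfl⟩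
  have hπi : Function.Injective π := fun p q h => hinj (by rw [← hπ, ← hπ, h])
  have hline : ∀ p q, adj p q → π '' {p, q, op p q} ∈ Cfsg.threeTranspositionLines D := by
    intro p q h
    refine ⟨π p, π q, by rw [hπ, hπ]; exact (hadj p q h).1, ?_⟩
    ext w
    simp only [Set.image_insert_eq, Set.image_singleton, Set.mem_insert_iff, Set.mem_singleton_iff,
      Set.mem_setOf_eq, Subtype.ext_iff, hπ, inv_self hD (hfD q), (hadj p q h).2]
  have hsub : Cfsg.LineSystem.IsSubspace (Cfsg.threeTranspositionLines D) (Set.range π) := by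
    rintro k hk _ ⟨p, rfl⟩ _ ⟨q, rfl⟩ hne hp hq
    obtain ⟨hnc, rfl⟩ := line_determined hD hk hne hp hq
    rw [hπ, hπ] at hnc
    have h : adj p q := by
      by_contra h
      exact hnc (hnadj p q (fun e => hne (by rw [e])) h)
    intro w hw
    simp only [Set.mem_setOf_eq, hπ, (hadj p q h).2] at hw
    rcases hw with hw | hw | hw
    · exact ⟨p, Subtype.ext (by rw [hπ, hw])⟩
    · exact ⟨q, Subtype.ext (by rw [hπ, hw])⟩
    · exact ⟨op p q, Subtype.ext (by rw [hπ, hw])⟩
  have hl' : l ⊆ Set.range π :=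
    hsub l hl x ⟨p0, Subtype.ext (by rw [hπ, hx])⟩ y ⟨p1, Subtype.ext (by rw [hπ, hy])⟩ hxy hxl hyl
  have hm' : m ⊆ Set.range π :=
    hsub m hm x ⟨p0, Subtype.ext (by rw [hπ, hx])⟩ z ⟨p2, Subtype.ext (by rw [hπ, hz])⟩ hxz hxm hzm
  have hspan : Cfsg.LineSystem.span (Cfsg.threeTranspositionLines D) (l ∪ m) = Set.range π := by
    apply Set.Subset.antisymm
    · exact Set.sInter_subset_of_mem ⟨Set.union_subset hl' hm', hsub⟩
    · rintro _ ⟨p, rfl⟩
      refine Set.mem_sInter.mpr ?_
      rintro T ⟨hT, hTs⟩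
      refine hind (fun p => π p ∈ T) ?_ ?_ ?_ ?_ p
      · rw [show π p0 = x from Subtype.ext (by rw [hπ, hx])]; exact hT (Or.inl hxl)
      · rw [show π p1 = y from Subtype.ext (by rw [hπ, hy])]; exact hT (Or.inl hyl)
      · rw [show π p2 = z from Subtype.ext (by rw [hπ, hz])]; exact hT (Or.inr hzm)
      · intro p q h hp hq
        refine hTs _ (hline p q h) _ hp _ hq ?_ ?_ ?_ ?_
        · intro e; exact (hadj p q h).1 (by rw [hπi e])
        · exact ⟨p, by simp, rfl⟩
        · exact ⟨q, by simp, rfl⟩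
        · exact ⟨op p q, by simp, rfl⟩
  rw [hspan]
  refine ⟨(Equiv.ofInjective π hπi).symm, fun k => ?_⟩
  constructor
  · rintro ⟨k', hk', hsub', rfl⟩
    have hc := lines_ncard hD hconj k' hk'
    obtain ⟨a, b, ha', hb', hab'⟩ := (Set.one_lt_ncard_iff (Set.finite_of_ncard_ne_zero
      (by rw [hc]; norm_num))).mp (by rw [hc]; norm_num)
    obtain ⟨p, rfl⟩ := hsub' ha'
    obtain ⟨q, rfl⟩ := hsub' hb'
    obtain ⟨hnc, hk2⟩ := line_determined hD hk' hab' ha' hb'
    rw [hπ, hπ] at hnc
    have h : adj p q := by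
      by_contra h
      exact hnc (hnadj p q (fun e => hab' (by rw [e])) h)
    refine (hM _).mpr ⟨p, q, h, ?_⟩
    rw [Equiv.image_eq_preimage_symm, Equiv.symm_symm]
    ext r
    simp only [Set.mem_preimage, Set.mem_setOf_eq, Equiv.ofInjective_apply, hk2, hπ, (hadj p q h).2,
      hinj.eq_iff, Set.mem_insert_iff, Set.mem_singleton_iff]
  · intro hk
    obtain ⟨p, q, h, he⟩ := (hM _).mp hk
    refine ⟨π '' {p, q, op p q}, hline p q h, Set.image_subset_range _ _, ?_⟩
    rw [← he, Equiv.image_eq_preimage_symm, Equiv.symm_symm]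
    ext ⟨w, r, rfl⟩
    simp only [Set.mem_setOf_eq, hπi.mem_set_image, Set.mem_preimage]
    rfl

include hD hconj in
/-- The line system of a 3-transposition set closed under conjugation is a Fischer space. -/
theorem isFischerSpace : Cfsg.IsFischerSpace (Cfsg.threeTranspositionLines D) := by
  refine ⟨lines_isPartialLinear hD, lines_ncard hD hconj, ?_⟩
  intro l hl m hm hne hint
  obtain ⟨x, hxl, hxm⟩ := hint
  have hcard := lines_ncard hD hconj
  obtain ⟨y, hyl, hyx⟩ := Set.exists_ne_of_one_lt_ncard (by rw [hcard l hl]; norm_num : 1 < l.ncard) x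
  obtain ⟨z, hzm, hzx⟩ := Set.exists_ne_of_one_lt_ncard (by rw [hcard m hm]; norm_num : 1 < m.ncard) x
  obtain ⟨hxy, hleq⟩ := line_determined hD hl hyx.symm hxl hyl
  obtain ⟨hxz, hmeq⟩ := line_determined hD hm hzx.symm hxm hzm
  have hyz : y ≠ z := by
    rintro rfl
    exact hne (lines_isPartialLinear hD l hl m hm x y hyx.symm hxl hyl hxm hzm)
  obtain ⟨z', hz'⟩ : ∃ z' : D, (z' : G) = (x : G) * z * x :=
    ⟨⟨_, by have := hconj x z z.2; rwa [inv_self hD x.2] at this⟩, rfl⟩
  have hz'm : z' ∈ m := by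
    rw [hmeq]; exact Or.inr (Or.inr (hz'.trans (braid hD x.2 z.2 hxz)))
  have hxz' : x ≠ z' := by
    intro h
    apply hxz
    have h' : (x : G) * z * x = x := by rw [← hz', ← h]
    have h2 : (x : G) * z = 1 := mul_right_cancel (h'.trans (one_mul _).symm)
    have h3 : (x : G) * z = (x : G) * x := by rw [h2, sq_one hD x.2]
    rw [mul_left_cancel h3]
  have hyz' : y ≠ z' := by
    rintro rfl
    exact hne (lines_isPartialLinear hD l hl m hm x y hyx.symm hxl hyl hxm hz'm)
  have hxz'c : ¬ Commute (x : G) z' := (line_determined hD hm hxz' hxm hz'm).1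
  by_cases h1 : Commute (y : G) z
  · left
    obtain ⟨f, hfD, hinj, hadj, hnadj, h0, h1', h2, hind⟩ := exists_dual hD hconj y.2 x.2 z.2
      (fun h => hxy h.symm) hxz h1 (fun h => hyz (Subtype.ext h))
    exact span_iso hD hconj _ f Adj dualOp hfD hinj (fun _ => dual_mem_iff) hadj
      (fun p q _ h => hnadj p q h) _ _ _ hind h0.symm h1'.symm h2.symm hl hm hyx.symm hxl hyl
      hzx.symm hxm hzm
  by_cases h2 : Commute (y : G) z'
  · left
    obtain ⟨f, hfD, hinj, hadj, hnadj, h0, h1', h2', hind⟩ := exists_dual hD hconj y.2 x.2 z'.2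
      (fun h => hxy h.symm) hxz'c h2 (fun h => hyz' (Subtype.ext h))
    exact span_iso hD hconj _ f Adj dualOp hfD hinj (fun _ => dual_mem_iff) hadj
      (fun p q _ h => hnadj p q h) _ _ _ hind h0.symm h1'.symm h2'.symm hl hm hyx.symm hxl hyl
      hxz' hxm hz'm
  · right
    obtain ⟨f, hfD, hinj, hadj, h0, h1', h2', hind⟩ := exists_affine hD hconj x.2 y.2 z.2 hxy hxz h1
      (by rw [← hz']; exact h2)
    exact span_iso hD hconj _ f (fun p q => p ≠ q) (fun p q => -p - q) hfD hinj
      (fun _ => affine_mem_iff) hadj (fun p q h h' => absurd h h') _ _ _ hind h0.symm h1'.symm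
      h2'.symm hl hm hyx.symm hxl hyl hzx.symm hxm hzm

end Cfsg.Agent.H17.Planes
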