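import Cfsg.Agent.S2572

/-! The centraliser of a transvection in `SL₅(2)`. -/

set_option autoImplicit false

namespace Cfsg.Agent.H17

open Matrix

theorem sl5_centralizer_card (s : Matrix.SpecialLinearGroup (Fin 5) (ZMod 2))
    (hs : (s : Matrix (Fin 5) (Fin 5) (ZMod 2)) = Matrix.transvection 0 1 1) :
    Nat.card (Subgroup.centralizer ({s} : Set (Matrix.SpecialLinearGroup (Fin 5) (ZMod 2)))) = 21504 := by
  let φ : Matrix.SpecialLinearGroup (Fin 5) (ZMod 2) →* GL (Fin 5) (ZMod 2) :=
    Matrix.SpecialLinearGroup.toGL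
  have hinj : Function.Injective φ := fun a b h =>
    Subtype.ext (congrArg (fun g : GL (Fin 5) (ZMod 2) => (g : Matrix (Fin 5) (Fin 5) (ZMod 2))) h)
  have hsurj : Function.Surjective φ := by
    intro g
    have hdet : (g : Matrix (Fin 5) (Fin 5) (ZMod 2)).det = 1 := by
      have h0 : (g : Matrix (Fin 5) (Fin 5) (ZMod 2)).det ≠ 0 :=
        ((Matrix.isUnit_iff_isUnit_det _).mp g.isUnit).ne_zero
      exact (by decide +kernel : ∀ d : ZMod 2, d ≠ 0 → d = 1) _ h0
    refine ⟨⟨(g : Matrix (Fin 5) (Fin 5) (ZMod 2)), hdet⟩, ?_⟩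
    apply Units.ext
    exact Matrix.SpecialLinearGroup.coe_GL_coe_matrix _
  let e := MulEquiv.ofBijective φ ⟨hinj, hsurj⟩
  have hcent : (Subgroup.centralizer ({s} : Set _)).map e.toMonoidHom =
      Subgroup.centralizer ({e s} : Set _) := by
    ext g
    rw [Subgroup.mem_map_equiv, Subgroup.mem_centralizer_singleton_iff,
      Subgroup.mem_centralizer_singleton_iff]
    constructor <;> intro h
    · simpa using congrArg e h
    · simpa using congrArg e.symm h
  have ht : Cfsg.IsTransvection ((e s : GL (Fin 5) (ZMod 2)) : Matrix (Fin 5) (Fin 5) (ZMod 2)) := by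
    have h1 : ((e s : GL (Fin 5) (ZMod 2)) : Matrix (Fin 5) (Fin 5) (ZMod 2)) - 1 =
        Matrix.vecMulVec (Pi.single 0 1) (Pi.single 1 1) := by
      show (s : Matrix (Fin 5) (Fin 5) (ZMod 2)) - 1 = _
      rw [hs, Matrix.transvection, add_sub_cancel_left]
      decide +kernel
    refine ⟨?_, ?_⟩
    · rw [h1]
      refine le_antisymm (Matrix.rank_vecMulVec_le _ _) (Nat.one_le_iff_ne_zero.mpr fun h0 => ?_)
      rw [Matrix.rank, Submodule.finrank_eq_zero, LinearMap.range_eq_bot] at h0
      have := congrFun (LinearMap.congr_fun h0 (Pi.single 1 1)) 0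
      revert this
      decide +kernel
    · rw [h1]; decide +kernel
  rw [Nat.card_congr (Subgroup.equivMapOfInjective _ e.toMonoidHom e.injective).toEquiv, hcent,
    Cfsg.Agent.S2572.result (ZMod.card 2) (by norm_num) _ ht]
  decide

end Cfsg.Agent.H17
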