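import Cfsg.Agent.H62.Carmichael

/-! The double cover of `A_n` inside a Clifford algebra over `ZMod 3`. -/

set_option autoImplicit false

namespace Cfsg.Agent.H17.SpinCover

open Equiv
open scoped commutatorElement

section ring

variable {R : Type*} [Ring R] {a b c d : R}
  (aa : a * a = 1) (bb : b * b = 1) (cc : c * c = 1) (dd : d * d = 1)
  (ba : b * a = -(a * b)) (ca : c * a = -(a * c)) (cb : c * b = -(b * c))
  (da : d * a = -(a * d)) (db : d * b = -(b * d)) (dc : d * c = -(c * d))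

/-- The lift of a three-cycle. -/
def lift3 (a b c : R) : R := 1 + a * c - a * b - b * c

/-- The lift of a double transposition. -/
def lift22 (a b c d : R) : R := a * b + b * c - a * d + c * d

include aa bb cc ba ca cb in
theorem lift3_cube : lift3 a b c * lift3 a b c * lift3 a b c = -8 := by
  have a' : ∀ z, a * (a * z) = z := fun z => by rw [← mul_assoc, aa, one_mul]
  have b' : ∀ z, b * (b * z) = z := fun z => by rw [← mul_assoc, bb, one_mul]
  have c' : ∀ z, c * (c * z) = z := fun z => by rw [← mul_assoc, cc, one_mul]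
  have ba' : ∀ z, b * (a * z) = -(a * (b * z)) := fun z => by rw [← mul_assoc, ba, neg_mul, mul_assoc]
  have ca' : ∀ z, c * (a * z) = -(a * (c * z)) := fun z => by rw [← mul_assoc, ca, neg_mul, mul_assoc]
  have cb' : ∀ z, c * (b * z) = -(b * (c * z)) := fun z => by rw [← mul_assoc, cb, neg_mul, mul_assoc]
  simp only [lift3, mul_add, add_mul, mul_sub, sub_mul, neg_mul, mul_neg, one_mul, mul_one, neg_neg,
    mul_assoc, aa, bb, cc, ba, ca, cb, a', b', c', ba', ca', cb']
  rw [show (-8 : R) = -(1 + 1 + 1 + 1 + 1 + 1 + 1 + 1) by norm_num]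
  abel

include aa bb cc dd ba ca cb da db dc in
theorem lift3_mul : lift3 a b c * lift3 a b d = (-2 : ℤ) • lift22 a b c d := by
  have a' : ∀ z, a * (a * z) = z := fun z => by rw [← mul_assoc, aa, one_mul]
  have b' : ∀ z, b * (b * z) = z := fun z => by rw [← mul_assoc, bb, one_mul]
  have ba' : ∀ z, b * (a * z) = -(a * (b * z)) := fun z => by rw [← mul_assoc, ba, neg_mul, mul_assoc]
  have ca' : ∀ z, c * (a * z) = -(a * (c * z)) := fun z => by rw [← mul_assoc, ca, neg_mul, mul_assoc]
  have cb' : ∀ z, c * (b * z) = -(b * (c * z)) := fun z => by rw [← mul_assoc, cb, neg_mul, mul_assoc]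
  simp only [lift3, lift22, mul_add, add_mul, mul_sub, sub_mul, neg_mul, mul_neg, one_mul, mul_one,
    neg_neg, mul_assoc, aa, bb, cc, ba, ca, cb, a', b', ba', ca', cb']
  abel

include aa bb cc dd ba ca cb da db dc in
theorem lift22_facts : lift22 a b c d * lift22 a b c d = -4 ∧
    lift22 a b c d * lift22 a b d c = -(lift22 a b d c * lift22 a b c d) := by
  have a' : ∀ z, a * (a * z) = z := fun z => by rw [← mul_assoc, aa, one_mul]
  have b' : ∀ z, b * (b * z) = z := fun z => by rw [← mul_assoc, bb, one_mul]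
  have c' : ∀ z, c * (c * z) = z := fun z => by rw [← mul_assoc, cc, one_mul]
  have d' : ∀ z, d * (d * z) = z := fun z => by rw [← mul_assoc, dd, one_mul]
  have ba' : ∀ z, b * (a * z) = -(a * (b * z)) := fun z => by rw [← mul_assoc, ba, neg_mul, mul_assoc]
  have ca' : ∀ z, c * (a * z) = -(a * (c * z)) := fun z => by rw [← mul_assoc, ca, neg_mul, mul_assoc]
  have cb' : ∀ z, c * (b * z) = -(b * (c * z)) := fun z => by rw [← mul_assoc, cb, neg_mul, mul_assoc]
  have da' : ∀ z, d * (a * z) = -(a * (d * z)) := fun z => by rw [← mul_assoc, da, neg_mul, mul_assoc]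
  have db' : ∀ z, d * (b * z) = -(b * (d * z)) := fun z => by rw [← mul_assoc, db, neg_mul, mul_assoc]
  have dc' : ∀ z, d * (c * z) = -(c * (d * z)) := fun z => by rw [← mul_assoc, dc, neg_mul, mul_assoc]
  constructor
  · simp only [lift22, mul_add, add_mul, mul_sub, sub_mul, neg_mul, mul_neg, neg_neg, mul_assoc,
      mul_one, aa, bb, cc, dd, ba, ca, cb, da, db, dc, a', b', c', d', ba', ca', cb', da', db', dc']
    rw [show (-4 : R) = -(1 + 1 + 1 + 1) by norm_num]
    abel
  · simp only [lift22, mul_add, add_mul, mul_sub, sub_mul, neg_mul, mul_neg, neg_neg, mul_assoc,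
      mul_one, aa, bb, cc, dd, ba, ca, cb, da, db, dc, a', b', c', d', ba', ca', cb', da', db', dc']
    abel

end ring

variable (n : ℕ)

/-- The space of the regular Clifford module. -/
abbrev Spc := (Fin n → ZMod 2) → ZMod 3

/-- The sign of moving the `i`-th generator into place. -/
def sgn (i : Fin n) (S : Fin n → ZMod 2) : ZMod 3 :=
  if (∑ j ∈ Finset.univ.filter (· < i), S j) = 0 then 1 else -1

/-- The Clifford generators. -/
def gam (i : Fin n) : Module.End (ZMod 3) (Spc n) where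
  toFun f S := sgn n i S * f (S + Pi.single i 1)
  map_add' f g := by ext S; simp [mul_add]
  map_smul' r f := by ext S; simp [mul_left_comm]

theorem sgn_add (i j : Fin n) (S : Fin n → ZMod 2) :
    sgn n i (S + Pi.single j 1) = if j < i then -sgn n i S else sgn n i S := by
  have h : (∑ k ∈ Finset.univ.filter (· < i), (S + (Pi.single j (1 : ZMod 2) : Fin n → ZMod 2)) k) =
      (∑ k ∈ Finset.univ.filter (· < i), S k) + if j < i then 1 else 0 := by
    simp [Finset.sum_add_distrib, Finset.sum_pi_single']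
  unfold sgn
  rw [h]
  generalize (∑ k ∈ Finset.univ.filter (· < i), S k) = t
  split_ifs with h1 <;> revert t <;> decide

theorem gam_sq (i : Fin n) : gam n i * gam n i = 1 := by
  refine LinearMap.ext fun f => funext fun S => ?_
  show sgn n i S * (sgn n i (S + Pi.single i 1) * f (S + Pi.single i 1 + Pi.single i 1)) = f S
  rw [sgn_add, if_neg (lt_irrefl i), add_assoc,
    show (Pi.single i (1 : ZMod 2) : Fin n → ZMod 2) + Pi.single i 1 = 0 by
      rw [← Pi.single_add]; simp [show (1 : ZMod 2) + 1 = 0 from rfl],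
    add_zero, ← mul_assoc]
  have : sgn n i S * sgn n i S = 1 := by unfold sgn; split_ifs <;> rfl
  rw [this, one_mul]

theorem gam_anti {i j : Fin n} (h : i ≠ j) : gam n i * gam n j = -(gam n j * gam n i) := by
  refine LinearMap.ext fun f => funext fun S => ?_
  show sgn n i S * (sgn n j (S + Pi.single i 1) * f (S + Pi.single i 1 + Pi.single j 1)) =
    -(sgn n j S * (sgn n i (S + Pi.single j 1) * f (S + Pi.single j 1 + Pi.single i 1)))
  rw [sgn_add, sgn_add, add_right_comm S]
  rcases lt_or_gt_of_ne h with h' | h'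
  · rw [if_pos h', if_neg h'.asymm]; ring
  · rw [if_neg h'.asymm, if_pos h']; ring

theorem three_eq_zero : (3 : Module.End (ZMod 3) (Spc n)) = 0 := by
  refine LinearMap.ext fun f => ?_
  rw [show (3 : Module.End (ZMod 3) (Spc n)) = ((3 : ℕ) : Module.End (ZMod 3) (Spc n)) from rfl,
    Module.End.natCast_apply]
  funext S
  show 3 • f S = 0
  rw [nsmul_eq_mul, show ((3 : ℕ) : ZMod 3) = 0 from rfl, zero_mul]

theorem neg_one_ne_one : (-1 : Module.End (ZMod 3) (Spc n)) ≠ 1 := fun h => by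
  have := congrFun (LinearMap.congr_fun h (fun _ => 1)) 0
  change -(1 : ZMod 3) = 1 at this
  exact absurd this (by decide)

instance : Finite (Module.End (ZMod 3) (Spc n)) :=
  Finite.of_injective (fun f => (f : Spc n → Spc n)) DFunLike.coe_injective

/-- The group the cover lives in. -/
abbrev Amb := (Module.End (ZMod 3) (Spc n))ˣ

theorem lift3_unit (k : ℕ) (i : Fin k) :
    lift3 (gam (k + 2) 0) (gam (k + 2) 1) (gam (k + 2) (H62.basePt k i)) *
      lift3 (gam (k + 2) 0) (gam (k + 2) 1) (gam (k + 2) (H62.basePt k i)) *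
      lift3 (gam (k + 2) 0) (gam (k + 2) 1) (gam (k + 2) (H62.basePt k i)) = 1 := by
  have h3 := three_eq_zero (k + 2)
  rw [lift3_cube (gam_sq _ _) (gam_sq _ _) (gam_sq _ _) (gam_anti _ (H62.zero_ne_one' k).symm)
    (gam_anti _ (H62.basePt_ne k i).1.symm) (gam_anti _ (H62.basePt_ne k i).2.symm)]
  calc (-8 : Module.End (ZMod 3) (Spc (k + 2))) = 1 - 3 * 3 := by norm_num
    _ = 1 := by rw [h3, zero_mul, sub_zero]

/-- The lifts of Carmichael's generators. -/
def gen (k : ℕ) (i : Fin k) : Amb (k + 2) :=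
  ⟨lift3 (gam (k + 2) 0) (gam (k + 2) 1) (gam (k + 2) (H62.basePt k i)),
   lift3 (gam (k + 2) 0) (gam (k + 2) 1) (gam (k + 2) (H62.basePt k i)) *
     lift3 (gam (k + 2) 0) (gam (k + 2) 1) (gam (k + 2) (H62.basePt k i)),
   by rw [← mul_assoc]; exact lift3_unit k i, lift3_unit k i⟩

theorem gen_cube (k : ℕ) (i : Fin k) : gen k i * gen k i * gen k i = 1 :=
  Units.ext (lift3_unit k i)

theorem gen_pair (k : ℕ) {i j : Fin k} (h : i ≠ j) :
    gen k i * gen k j * (gen k i * gen k j) = -1 ∧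
      gen k i * gen k j * (gen k j * gen k i) = -1 * (gen k j * gen k i * (gen k i * gen k j)) := by
  have hne : H62.basePt k i ≠ H62.basePt k j := fun e => h (by
    have := congrArg Fin.val e
    simp [H62.basePt] at this
    exact Fin.ext this)
  have h3 := three_eq_zero (k + 2)
  set a := gam (k + 2) 0
  set b := gam (k + 2) 1
  set c := gam (k + 2) (H62.basePt k i)
  set d := gam (k + 2) (H62.basePt k j)
  have ba : b * a = -(a * b) := gam_anti _ (H62.zero_ne_one' k).symm
  have ca : c * a = -(a * c) := gam_anti _ (H62.basePt_ne k i).1.symm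
  have cb : c * b = -(b * c) := gam_anti _ (H62.basePt_ne k i).2.symm
  have da : d * a = -(a * d) := gam_anti _ (H62.basePt_ne k j).1.symm
  have db : d * b = -(b * d) := gam_anti _ (H62.basePt_ne k j).2.symm
  have dc : d * c = -(c * d) := gam_anti _ hne.symm
  have cd : c * d = -(d * c) := gam_anti _ hne
  have aa : a * a = 1 := gam_sq _ _
  have bb : b * b = 1 := gam_sq _ _
  have cc : c * c = 1 := gam_sq _ _
  have dd : d * d = 1 := gam_sq _ _
  have m1 := lift3_mul aa bb cc dd ba ca cb da db dc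
  have m2 := lift3_mul aa bb dd cc ba da db ca cb cd
  obtain ⟨f1, f2⟩ := lift22_facts aa bb cc dd ba ca cb da db dc
  have h2 : (-2 : ℤ) • lift22 a b c d = lift22 a b c d := by
    have : (-2 : ℤ) • lift22 a b c d = lift22 a b c d - 3 * lift22 a b c d := by
      rw [show (3 : Module.End (ZMod 3) (Spc (k + 2))) = 1 + 1 + 1 by norm_num]
      simp only [add_mul, one_mul]; abel
    rw [this, h3, zero_mul, sub_zero]
  have h2' : (-2 : ℤ) • lift22 a b d c = lift22 a b d c := by
    have : (-2 : ℤ) • lift22 a b d c = lift22 a b d c - 3 * lift22 a b d c := by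
      rw [show (3 : Module.End (ZMod 3) (Spc (k + 2))) = 1 + 1 + 1 by norm_num]
      simp only [add_mul, one_mul]; abel
    rw [this, h3, zero_mul, sub_zero]
  rw [h2] at m1
  rw [h2'] at m2
  constructor <;> refine Units.ext ?_
  · show lift3 a b c * lift3 a b d * (lift3 a b c * lift3 a b d) = -1
    rw [m1, f1]
    calc (-4 : Module.End (ZMod 3) (Spc (k + 2))) = -1 - 3 := by norm_num
      _ = -1 := by rw [h3, sub_zero]
  · show lift3 a b c * lift3 a b d * (lift3 a b d * lift3 a b c) =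
      -1 * (lift3 a b d * lift3 a b c * (lift3 a b c * lift3 a b d))
    rw [m1, m2]
    rw [f2]
    exact LinearMap.ext fun _ => rfl

/-- A double cover of `A_(k+2)` from lifts of Carmichael's generators. -/
theorem cover {Amb : Type} [Group Amb] [Finite Amb] {k : ℕ} (hk : 2 ≤ k) (gens : Fin k → Amb)
    (z : Amb) (hz2 : z * z = 1) (hz1 : z ≠ 1) (hzc : ∀ u : Amb, Commute z u)
    (g3 : ∀ i, gens i * gens i * gens i = 1)
    (g2 : ∀ i j, i ≠ j → gens i * gens j * (gens i * gens j) = z)
    (hac : ∀ i j, i ≠ j →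
      gens i * gens j * (gens j * gens i) = z * (gens j * gens i * (gens i * gens j))) :
    ∃ (Γ : Type) (_ : Group Γ) (_ : Finite Γ) (w : Γ) (_ : w ∈ Subgroup.center Γ), orderOf w = 2 ∧
      w ∈ commutator Γ ∧ ∃ _ : (Subgroup.zpowers w).Normal,
        Nonempty (Γ ⧸ Subgroup.zpowers w ≃* alternatingGroup (Fin (k + 2))) := by
  have hzord : orderOf z = 2 := orderOf_eq_prime (by rw [pow_two]; exact hz2) hz1
  obtain ⟨i₀, i₁, h01⟩ : ∃ i j : Fin k, i.val = 0 ∧ j.val = 1 :=
    ⟨⟨0, by omega⟩, ⟨1, by omega⟩, rfl, rfl⟩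
  have hne01 : i₀ ≠ i₁ := fun h => by rw [h] at h01; omega
  set Γ := Subgroup.closure (Set.range gens) with hΓ
  have hg : ∀ i, gens i ∈ Γ := fun i => Subgroup.subset_closure ⟨i, rfl⟩
  have hzd : z ∈ ⁅Γ, Γ⁆ := by
    have h : ⁅gens i₀ * gens i₁, gens i₁ * gens i₀⁆ = z := by
      rw [commutatorElement_def, hac i₀ i₁ hne01]
      group
    rw [← h]
    exact Subgroup.commutator_mem_commutator (mul_mem (hg _) (hg _)) (mul_mem (hg _) (hg _))
  have hzΓ : z ∈ Γ :=
    (Subgroup.commutator_le.2 fun a ha b hb => by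
      rw [commutatorElement_def]
      exact mul_mem (mul_mem (mul_mem ha hb) (inv_mem ha)) (inv_mem hb)) hzd
  let zΓ : Γ := ⟨z, hzΓ⟩
  let xΓ : Fin k → Γ := fun i => ⟨gens i, hg i⟩
  have hcen : zΓ ∈ Subgroup.center Γ :=
    Subgroup.mem_center_iff.2 fun g => Subtype.ext (hzc g).eq.symm
  haveI hnorm : (Subgroup.zpowers zΓ).Normal := ⟨fun m hm g => by
    rw [Subgroup.mem_center_iff.1 (Subgroup.zpowers_le.2 hcen hm) g, mul_inv_cancel_right]
    exact hm⟩
  let π := QuotientGroup.mk' (Subgroup.zpowers zΓ)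
  have hker1 : ∀ g : Γ, (g : Amb) = 1 → π g = 1 := fun g hg => by
    rw [show g = 1 from Subtype.ext hg, map_one]
  have hkerz : ∀ g : Γ, (g : Amb) = z → π g = 1 := fun g hg =>
    (QuotientGroup.eq_one_iff g).2 (show g ∈ Subgroup.zpowers zΓ by
      rw [show g = zΓ from Subtype.ext hg]; exact Subgroup.mem_zpowers _)
  obtain ⟨Ψ, hΨ⟩ := H62.exists_alt_hom (fun i => π (xΓ i))
    (fun i => by
      rw [← map_pow]; refine hker1 _ ?_
      rw [SubmonoidClass.coe_pow, pow_succ, pow_two]; exact g3 i)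
    (fun i j hij => by
      rw [← map_mul, ← map_pow]; refine hkerz _ ?_
      rw [SubmonoidClass.coe_pow, pow_two]; exact g2 i j hij)
  have hclos : Subgroup.closure (Set.range xΓ) = ⊤ := by
    rw [eq_top_iff]
    intro g _
    have hg : (g : Amb) ∈ (Subgroup.closure (Set.range xΓ)).map Γ.subtype := by
      rw [MonoidHom.map_closure, ← Set.range_comp]
      exact g.2
    obtain ⟨g', hg', he⟩ := hg
    exact (Subtype.ext he : g' = g) ▸ hg'
  have hsurj : Function.Surjective Ψ := by
    rw [← MonoidHom.range_eq_top, eq_top_iff,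
      ← Subgroup.map_top_of_surjective π (QuotientGroup.mk'_surjective _), ← hclos,
      MonoidHom.map_closure, Subgroup.closure_le]
    rintro _ ⟨_, ⟨i, rfl⟩, rfl⟩
    exact ⟨H62.tauA k i, hΨ i⟩
  have hpair : Ψ (H62.tauA k i₀ * H62.tauA k i₁) ≠ 1 := fun h => by
    rw [map_mul, hΨ, hΨ, ← map_mul] at h
    have hm : xΓ i₀ * xΓ i₁ ∈ Subgroup.zpowers zΓ := (QuotientGroup.eq_one_iff _).1 h
    have hsq : ∀ g ∈ Subgroup.zpowers zΓ, g * g = 1 := by
      rintro _ ⟨j, rfl⟩
      show zΓ ^ j * zΓ ^ j = 1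
      rw [← (Commute.refl zΓ).mul_zpow, show zΓ * zΓ = 1 from Subtype.ext hz2, one_zpow]
    exact hz1 ((g2 i₀ i₁ hne01).symm.trans (congrArg Subtype.val (hsq _ hm)))
  have hinj : Function.Injective Ψ := by
    rw [injective_iff_map_eq_one]
    intro g hg
    by_contra hg1
    apply hpair
    rcases Nat.lt_or_ge k 3 with hk3 | hk3
    · obtain rfl : k = 2 := by omega
      obtain ⟨rfl, rfl⟩ : i₀ = 0 ∧ i₁ = 1 := ⟨Fin.ext h01.1, Fin.ext h01.2⟩
      have hdec : ∀ g : Perm (Fin 4), Perm.sign g = 1 → g ≠ 1 →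
          g = H62.tau 2 0 * H62.tau 2 1 ∨ ∃ h : Perm (Fin 4), Perm.sign h = 1 ∧
            g * h * g⁻¹ * h⁻¹ = H62.tau 2 0 * H62.tau 2 1 := by decide +kernel
      rcases hdec g.1 (Perm.mem_alternatingGroup.1 g.2) (fun e => hg1 (Subtype.ext e)) with h | ⟨h, hs, he⟩
      · rw [show H62.tauA 2 0 * H62.tauA 2 1 = g from Subtype.ext h.symm, hg]
      · rw [show H62.tauA 2 0 * H62.tauA 2 1 =
          g * ⟨h, Perm.mem_alternatingGroup.2 hs⟩ * g⁻¹ * (⟨h, Perm.mem_alternatingGroup.2 hs⟩)⁻¹
          from Subtype.ext he.symm, map_mul, map_mul, map_mul, map_inv, map_inv, hg, one_mul, inv_one,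
          mul_one, mul_inv_cancel]
    · haveI : IsSimpleGroup (alternatingGroup (Fin (k + 2))) :=
        alternatingGroup.isSimpleGroup (by simp; omega)
      rcases (inferInstance : Ψ.ker.Normal).eq_bot_or_eq_top with h | h
      · exact absurd (Subgroup.mem_bot.1 (h ▸ MonoidHom.mem_ker.2 hg)) hg1
      · exact MonoidHom.mem_ker.1 (h ▸ Subgroup.mem_top _)
  refine ⟨Γ, inferInstance, inferInstance, zΓ, hcen, ?_, ?_, hnorm,
    ⟨(MulEquiv.ofBijective Ψ ⟨hinj, hsurj⟩).symm⟩⟩
  · rw [← Subgroup.orderOf_coe zΓ]; exact hzord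
  · rw [← Subgroup.mem_map_iff_mem Γ.subtype_injective]
    have : (commutator Γ).map Γ.subtype = ⁅Γ, Γ⁆ := by
      rw [commutator_def, Subgroup.map_commutator, ← MonoidHom.range_eq_map, Subgroup.range_subtype]
    rw [this]
    exact hzd

theorem exists_cover {n : ℕ} (hn : 4 ≤ n) :
    ∃ (Γ : Type) (_ : Group Γ) (_ : Finite Γ) (w : Γ) (_ : w ∈ Subgroup.center Γ), orderOf w = 2 ∧
      w ∈ commutator Γ ∧ ∃ _ : (Subgroup.zpowers w).Normal,
        Nonempty (Γ ⧸ Subgroup.zpowers w ≃* alternatingGroup (Fin n)) := by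
  obtain ⟨k, rfl⟩ : ∃ k, n = k + 2 := ⟨n - 2, by omega⟩
  exact cover (by omega) (gen k) (-1) ((neg_mul_neg (1 : Amb (k + 2)) 1).trans (mul_one 1))
    (fun h => neg_one_ne_one (k + 2) (congrArg Units.val h)) (fun u => Commute.neg_one_left u)
    (gen_cube k) (fun i j h => (gen_pair k h).1) (fun i j h => (gen_pair k h).2)

end Cfsg.Agent.H17.SpinCover
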