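import Cfsg.Agent.H17.TransGeneric
import Cfsg.Agent.H2.Generation

/-! Symplectic transvections over the field of two elements. -/

set_option autoImplicit false

namespace Cfsg.Agent.H17.Transv

open Matrix Cfsg

variable {m : ℕ}

theorem zmod_two_cases : ∀ a : ZMod 2, a = 0 ∨ a = 1 := by decide +kernel

/-- An element with `g - 1` of rank one is a transvection. -/
theorem symp_eq_transv {g : Matrix.symplecticGroup (Fin m) (ZMod 2)}
    (h : ((g : Matrix (Fin m ⊕ Fin m) (Fin m ⊕ Fin m) (ZMod 2)) - 1).rank = 1) :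
    ∃ v, v ≠ 0 ∧ g = H2.transv v 1 := by
  obtain ⟨w, a, x₀, hw, hx₀, ha⟩ := exists_of_rank_one h
  have hg : ∀ x, (g : Matrix (Fin m ⊕ Fin m) (Fin m ⊕ Fin m) (ZMod 2)) *ᵥ x = x + a x • w := fun x => by
    rw [← ha, Matrix.sub_mulVec, Matrix.one_mulVec]; abel
  have key : ∀ x y, a x * Cfsg.sympForm m (ZMod 2) w y + a y * Cfsg.sympForm m (ZMod 2) x w = 0 := by
    intro x y
    have := H2.sympForm_mulVec g x y
    simp only [hg, ← H2.sympBilin_apply, map_add, map_smul, LinearMap.add_apply,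
      LinearMap.smul_apply, smul_eq_mul, (H2.sympBilin_isAlt m (ZMod 2)) w] at this ⊢
    linear_combination this
  have hwy : ∀ y, Cfsg.sympForm m (ZMod 2) w y = a y * Cfsg.sympForm m (ZMod 2) x₀ w := by
    intro y
    have := key x₀ y
    rw [hx₀, one_mul] at this
    rw [eq_neg_of_add_eq_zero_left this]
    exact ZMod.neg_eq_self_mod_two _
  have h1 : Cfsg.sympForm m (ZMod 2) x₀ w = 1 := by
    refine (zmod_two_cases _).resolve_left fun h0 => hw (H2.sympForm_eq_zero_forall fun y => ?_)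
    rw [hwy, h0, mul_zero]
  refine ⟨w, hw, H2.ext_of_mulVec fun x => ?_⟩
  rw [hg, H2.coe_transv, H2.sympTransvection_mulVec, one_mul, H2.sympForm_swap w x,
    ZMod.neg_eq_self_mod_two, hwy, h1, mul_one]

/-- Conversely a transvection with non-zero centre has rank one. -/
theorem symp_rank {v : Fin m ⊕ Fin m → ZMod 2} (hv : v ≠ 0) :
    ((H2.transv v 1 : Matrix.symplecticGroup (Fin m) (ZMod 2)) :
      Matrix (Fin m ⊕ Fin m) (Fin m ⊕ Fin m) (ZMod 2)) - 1 ≠ 0 ∧
    (((H2.transv v 1 : Matrix.symplecticGroup (Fin m) (ZMod 2)) :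
      Matrix (Fin m ⊕ Fin m) (Fin m ⊕ Fin m) (ZMod 2)) - 1).rank = 1 := by
  have hne : ((H2.transv v 1 : Matrix.symplecticGroup (Fin m) (ZMod 2)) :
      Matrix (Fin m ⊕ Fin m) (Fin m ⊕ Fin m) (ZMod 2)) - 1 ≠ 0 := by
    intro h
    apply hv
    refine H2.sympForm_eq_zero_forall fun x => ?_
    have h' := congrArg (fun M => M *ᵥ x) h
    simp only [Matrix.sub_mulVec, Matrix.one_mulVec, Matrix.zero_mulVec, H2.coe_transv,
      H2.sympTransvection_mulVec, add_sub_cancel_left, one_mul] at h'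
    rw [H2.sympForm_swap, (smul_eq_zero.mp h').resolve_right hv, neg_zero]
  refine ⟨hne, rank_eq_one (w := v) (fun x => ⟨Cfsg.sympForm m (ZMod 2) x v, ?_⟩) hne⟩
  simp [Matrix.sub_mulVec, H2.sympTransvection_mulVec]

theorem symplectic_class (n : ℕ) (hn : 1 ≤ n) :
    Cfsg.IsThreeTranspositionClass {g : Matrix.symplecticGroup (Fin n) (ZMod 2) |
      ((g : Matrix (Fin n ⊕ Fin n) (Fin n ⊕ Fin n) (ZMod 2)) - 1).rank = 1} := by
  refine class_of_family (fun v => H2.transv v 1) (fun v => v ≠ 0) _ (fun g => ⟨?_, ?_⟩) ?_ ?_ ?_ ?_ ?_ ?_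
  · exact fun h => symp_eq_transv h
  · rintro ⟨v, hv, rfl⟩; exact (symp_rank hv).2
  · exact ⟨Pi.single (.inl ⟨0, hn⟩) 1, by simp⟩
  · intro v hv
    refine ⟨by rw [H2.transv_mul, show (1 : ZMod 2) + 1 = 0 by decide, H2.transv_zero], fun h => ?_⟩
    exact (symp_rank hv).1 (by rw [h]; simp)
  · intro g v hv
    rw [H2.conj_transv]
    refine (symp_rank fun h => hv ?_).2
    have h' := congrArg (fun x => ((g⁻¹ : Matrix.symplecticGroup (Fin n) (ZMod 2)) :
      Matrix (Fin n ⊕ Fin n) (Fin n ⊕ Fin n) (ZMod 2)) *ᵥ x) h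
    simpa [Matrix.mulVec_mulVec, ← Submonoid.coe_mul] using h'
  · intro u v _ _
    rcases zmod_two_cases (Cfsg.sympForm n (ZMod 2) v u) with h | h
    · left
      have h' := H2.conj_transv (H2.transv u 1) v 1
      rw [H2.coe_transv, H2.sympTransvection_mulVec, h, mul_zero, zero_smul, add_zero,
        mul_inv_eq_iff_eq_mul] at h'
      exact h'
    · right
      have h2 : Cfsg.sympForm n (ZMod 2) u v = 1 := by
        rw [H2.sympForm_swap, h, ZMod.neg_eq_self_mod_two]
      have a := H2.conj_transv (H2.transv u 1) v 1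
      have b := H2.conj_transv (H2.transv v 1) u 1
      rw [H2.coe_transv, H2.sympTransvection_mulVec, h, one_mul, one_smul, H2.transv_inv,
        ZMod.neg_eq_self_mod_two] at a
      rw [H2.coe_transv, H2.sympTransvection_mulVec, h2, one_mul, one_smul, H2.transv_inv,
        ZMod.neg_eq_self_mod_two, add_comm] at b
      rw [a, b]
  · intro u v hu hv
    obtain ⟨g, hg⟩ := H2.exists_map_vec hu hv
    exact ⟨g, by rw [H2.conj_transv, hg]⟩
  · rw [eq_top_iff, ← H2.closure_transv_eq_top, Subgroup.closure_le]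
    rintro _ ⟨v, c, rfl⟩
    rcases zmod_two_cases c with rfl | rfl
    · rw [H2.transv_zero]; exact one_mem _
    · by_cases hv : v = 0
      · have : H2.transv v (1 : ZMod 2) = (1 : Matrix.symplecticGroup (Fin n) (ZMod 2)) :=
          H2.ext_of_mulVec fun x => by simp [hv, H2.sympTransvection_mulVec]
        rw [this]; exact one_mem _
      · exact Subgroup.subset_closure (symp_rank hv).2

end Cfsg.Agent.H17.Transv
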